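import Cfsg.Agent.Chev.Cover.Central.Split

/-!
# Lifting homomorphisms from a perfect central extension
-/

set_option autoImplicit false
set_option linter.style.haveILetI false
set_option linter.unusedSectionVars false

namespace CfsgLib.Chev

open scoped commutatorElement

universe u w w₁

variable {C : Type u} [Group C] {G₁ : Type w₁} [Group G₁] {E : Type w} [Group E]

/-- Two homomorphisms of a perfect group differing by central values are equal. -/
theorem hom_eq_of_perfect (hC : commutator C = ⊤) {π₁ : E →* G₁} (hc : π₁.ker ≤ Subgroup.center E)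
    {f g : C →* E} (h : π₁.comp f = π₁.comp g) : f = g := by
  have hdiff : ∀ x, (f x)⁻¹ * g x ∈ π₁.ker := fun x => by
    rw [MonoidHom.mem_ker, map_mul, map_inv, ← MonoidHom.comp_apply, ← MonoidHom.comp_apply, h,
      inv_mul_cancel]
  have hle : commutator C ≤ f.eqLocus g := by
    rw [commutator_eq_closure, Subgroup.closure_le]
    rintro _ ⟨a, b, rfl⟩
    show f ⁅a, b⁆ = g ⁅a, b⁆
    have hga : g a = f a * ((f a)⁻¹ * g a) := by group
    have hgb : g b = f b * ((f b)⁻¹ * g b) := by group
    have h1 := Subgroup.mem_center_iff.1 (hc (hdiff a))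
    have h2 := Subgroup.mem_center_iff.1 (hc (hdiff b))
    rw [map_commutatorElement, map_commutatorElement, hga, hgb]
    generalize (f a)⁻¹ * g a = z at h1 ⊢
    generalize (f b)⁻¹ * g b = z' at h2 ⊢
    simp only [commutatorElement_def]
    calc f a * f b * (f a)⁻¹ * (f b)⁻¹
        = f a * (f b * (z' * (f a)⁻¹)) * z'⁻¹ * (f b)⁻¹ := by rw [← h2]; group
      _ = f a * (f b * z' * z) * z⁻¹ * (f a)⁻¹ * z'⁻¹ * (f b)⁻¹ := by group
      _ = f a * (z * (f b * z')) * z⁻¹ * (f a)⁻¹ * z'⁻¹ * (f b)⁻¹ := by rw [← h1]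
      _ = f a * z * (f b * z') * (f a * z)⁻¹ * (f b * z')⁻¹ := by group
  exact MonoidHom.ext fun x => hle (hC ▸ Subgroup.mem_top x)

/-- A perfect central extension with the universal property among central extensions of the same
base lifts every homomorphism into the base of a central extension. -/
theorem exists_unique_lift {G : Type u} [Group G] (θ : C →* G) (hθs : Function.Surjective θ)
    (hθc : θ.ker ≤ Subgroup.center C) (hC : commutator C = ⊤)
    (huniv : ∀ (Δ : Type (max u w)) [Group Δ] (τ : Δ →* G), IsCentralOnto τ → ∃ μ : C →* Δ, τ.comp μ = θ)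
    {π₁ : E →* G₁} (hπ : Function.Surjective π₁) (hc : π₁.ker ≤ Subgroup.center E) (σ : C →* G₁) :
    ∃! τ : C →* E, π₁.comp τ = σ := by
  let Δ : Subgroup (C × E) :=
    (σ.comp (MonoidHom.fst C E)).eqLocus (π₁.comp (MonoidHom.snd C E))
  let ρ : Δ →* C := (MonoidHom.fst C E).comp Δ.subtype
  have hρs : Function.Surjective ρ := fun x => by
    obtain ⟨e, he⟩ := hπ (σ x)
    exact ⟨⟨(x, e), he.symm⟩, rfl⟩
  have hρc : ρ.ker ≤ Subgroup.center Δ := by
    intro z hz
    have hz1 : (z : C × E).1 = 1 := hz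
    have hz2 : (z : C × E).2 ∈ π₁.ker := by
      have : σ (z : C × E).1 = π₁ (z : C × E).2 := z.2
      rw [hz1, map_one] at this
      exact this.symm
    rw [Subgroup.mem_center_iff]
    intro y
    refine Subtype.ext (Prod.ext ?_ (Subgroup.mem_center_iff.1 (hc hz2) _))
    show (y : C × E).1 * (z : C × E).1 = (z : C × E).1 * (y : C × E).1
    rw [hz1, one_mul, mul_one]
  -- an element over a central element of `C` is central
  have hcen : ∀ z : Δ, ρ z ∈ Subgroup.center C → z ∈ Subgroup.center Δ := by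
    intro z hz
    have hcomm : ∀ y : Δ, ⁅z, y⁆ ∈ ρ.ker := fun y => by
      rw [MonoidHom.mem_ker, map_commutatorElement, commutatorElement_eq_one_iff_mul_comm]
      exact (Subgroup.mem_center_iff.1 hz _).symm
    let φ : Δ →* Δ := MonoidHom.mk' (fun y => ⁅z, y⁆) fun a b => by
      have h1 := Subgroup.mem_center_iff.1 (hρc (hcomm b)) a
      rw [show ⁅z, a * b⁆ = ⁅z, a⁆ * (a * ⁅z, b⁆ * a⁻¹) by simp only [commutatorElement_def]; group,
        h1, mul_inv_cancel_right]
    have hφc : ∀ a, φ a ∈ Subgroup.center Δ := fun a => hρc (hcomm a)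
    have h1 : commutator Δ ≤ φ.ker := by
      rw [commutator_eq_closure, Subgroup.closure_le]
      rintro _ ⟨a, b, rfl⟩
      rw [SetLike.mem_coe, MonoidHom.mem_ker, map_commutatorElement,
        commutatorElement_eq_one_iff_mul_comm]
      exact Subgroup.mem_center_iff.1 (hφc b) (φ a)
    rw [Subgroup.mem_center_iff]
    intro y
    have hy : ρ y ∈ (commutator Δ).map ρ := by
      rw [commutator_def, Subgroup.map_commutator, Subgroup.map_top_of_surjective _ hρs,
        ← commutator_def, hC]
      exact Subgroup.mem_top _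
    obtain ⟨d, hd, hdy⟩ := hy
    have hk : d⁻¹ * y ∈ ρ.ker := by rw [MonoidHom.mem_ker, map_mul, map_inv, hdy, inv_mul_cancel]
    have h2 : φ y = 1 := by
      rw [show y = d * (d⁻¹ * y) by group, map_mul, MonoidHom.mem_ker.1 (h1 hd), one_mul]
      show ⁅z, d⁻¹ * y⁆ = 1
      exact commutatorElement_eq_one_iff_mul_comm.2 (Subgroup.mem_center_iff.1 (hρc hk) z)
    exact (commutatorElement_eq_one_iff_mul_comm.1 h2).symm
  obtain ⟨μ, hμ⟩ := huniv Δ (θ.comp ρ) ⟨hθs.comp hρs, fun z hz => hcen z (hθc hz)⟩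
  have hid : ρ.comp μ = MonoidHom.id C :=
    hom_eq_of_perfect hC hθc (by rw [MonoidHom.comp_id, ← MonoidHom.comp_assoc]; exact hμ)
  refine ⟨((MonoidHom.snd C E).comp Δ.subtype).comp μ, MonoidHom.ext fun x => ?_, fun τ hτ =>
    hom_eq_of_perfect hC hc (hτ.trans (MonoidHom.ext fun x => ?_).symm)⟩
  all_goals
    have h : σ (μ x : C × E).1 = π₁ (μ x : C × E).2 := (μ x).2
    rw [show (μ x : C × E).1 = x from DFunLike.congr_fun hid x] at h
    exact h.symm

end CfsgLib.Chev
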