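import Cfsg.Agent.Chev.Cover.Groups
import Cfsg.Agent.Chev.Cover.Universal
import Cfsg.Agent.Chev.Cover.Central.Pullback

/-!
# Central extensions with kernel of order prime to the characteristic

Over a finite field the `p`-elements over a Sylow subgroup form a subgroup, which gives lifts of
the root elements satisfying (R1) and (R2).
-/

set_option autoImplicit false
set_option linter.style.haveILetI false
set_option linter.unusedSectionVars false

namespace CfsgLib.Chev

open Cfsg.Lie Matrix CfsgLib.Schur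
open scoped commutatorElement

universe u w

/-- In a central extension of a perfect group the elements over the centre are central in the
commutator subgroup. -/
theorem comp_central_of_perfect {C : Type u} [Group C] {Γ : Type w} [Group Γ] {ρ : Γ →* C}
    (hρc : ρ.ker ≤ Subgroup.center Γ) (hC : commutator C = ⊤) (hρ : Function.Surjective ρ) {z : Γ}
    (hz : ρ z ∈ Subgroup.center C) : z ∈ Subgroup.center Γ := by
  have hcomm : ∀ y : Γ, ⁅z, y⁆ ∈ ρ.ker := fun y => by
    rw [MonoidHom.mem_ker, map_commutatorElement, commutatorElement_eq_one_iff_mul_comm]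
    exact (Subgroup.mem_center_iff.1 hz _).symm
  let φ : Γ →* Γ := MonoidHom.mk' (fun y => ⁅z, y⁆) fun a b => by
    have h1 := Subgroup.mem_center_iff.1 (hρc (hcomm b)) a
    rw [show ⁅z, a * b⁆ = ⁅z, a⁆ * (a * ⁅z, b⁆ * a⁻¹) by simp only [commutatorElement_def]; group,
      h1, mul_inv_cancel_right]
  have h1 : commutator Γ ≤ φ.ker := by
    rw [commutator_eq_closure, Subgroup.closure_le]
    rintro _ ⟨a, b, rfl⟩
    rw [SetLike.mem_coe, MonoidHom.mem_ker, map_commutatorElement,
      commutatorElement_eq_one_iff_mul_comm]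
    exact Subgroup.mem_center_iff.1 (hρc (hcomm b)) (φ a)
  rw [Subgroup.mem_center_iff]
  intro y
  have hy : ρ y ∈ (commutator Γ).map ρ := by
    rw [commutator_def, Subgroup.map_commutator, Subgroup.map_top_of_surjective _ hρ,
      ← commutator_def, hC]
    exact Subgroup.mem_top _
  obtain ⟨d, hd, hdy⟩ := hy
  have hk : d⁻¹ * y ∈ ρ.ker := by rw [MonoidHom.mem_ker, map_mul, map_inv, hdy, inv_mul_cancel]
  have h2 : φ y = 1 := by
    rw [show y = d * (d⁻¹ * y) by group, map_mul, MonoidHom.mem_ker.1 (h1 hd), one_mul]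
    show ⁅z, d⁻¹ * y⁆ = 1
    exact commutatorElement_eq_one_iff_mul_comm.2 (Subgroup.mem_center_iff.1 (hρc hk) z)
  exact (commutatorElement_eq_one_iff_mul_comm.1 h2).symm

namespace Sys

variable {D : ChevalleyDatum} (S : Sys.{u} D) {F : Type u} [Field F] [Finite F]
  {p : ℕ} [hp : Fact p.Prime] [CharP F p]

/-- The kernel of the Steinberg group has order prime to the characteristic. -/
theorem not_dvd_card_ker_stLift (hg : GenOK D) : ¬ p ∣ Nat.card (S.stLift F).θ.ker := by
  haveI := Fintype.ofFinite F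
  obtain ⟨φ, -, hφ⟩ := (S.stLift F).ker_subset_param hg S.stLift_R3
  have hle : (S.stLift F).θ.ker ≤ φ.range := fun z hz => by
    rw [(S.stLift F).θ_ker] at hz
    obtain ⟨c, -, hc⟩ := (hφ z).1 hz
    exact ⟨c, hc⟩
  intro hdvd
  have h1 := (hdvd.trans (Subgroup.card_dvd_of_le hle)).trans (Subgroup.card_range_dvd φ)
  rw [Nat.card_fun, Nat.card_units] at h1
  have h2 : p ∣ Nat.card F := by
    rw [Nat.card_eq_fintype_card, ← CharP.cast_eq_zero_iff F p]
    exact Nat.cast_card_eq_zero F
  have h3 := hp.out.dvd_of_dvd_pow h1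
  have h4 : p ∣ 1 := by
    have := Nat.dvd_sub h2 h3
    rwa [Nat.sub_sub_self (Nat.card_pos (α := F))] at this
  exact hp.out.not_dvd_one h4

/-- A central extension with kernel of order prime to `p` satisfies the relations. -/
theorem exists_cover_hom_coprime {Γ : Type w} [Group Γ] [Finite Γ] {σ : Γ →* D.group F}
    (hs : Function.Surjective σ) (hc : σ.ker ≤ Subgroup.center Γ) (hn : ¬ p ∣ Nat.card σ.ker) :
    ∃ μ : D.SteinbergCover F →* Γ, σ.comp μ = (S.coverLift F).θ := by
  classical
  haveI : Finite (D.group F) := Finite.of_surjective σ hs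
  have hpx : ∀ r t, IsPEl p (S.xg r t : D.group F) := fun r t =>
    ⟨1, Subtype.ext (by
      rw [Subgroup.coe_pow, S.coe_xg, pow_one, S.xU_pow, CharP.cast_eq_zero F p, zero_mul,
        S.xU_zero]; rfl)⟩
  choose x hxσ hxp using fun r t => exists_pel hs hc hn (hpx r t)
  have hwd : ∀ L : List ℕ, (∀ q ∈ L, q < D.rank) → ∀ r < D.nroots,
      D.nroots / 2 ≤ Sys.wN (S.wprod L) r → ∀ t,
      x r t ∈ pelLift hc hn (S.isPGroup_wUnip (F := F) p L) := fun L hL r hr h t =>
    ⟨by rw [hxσ]; exact S.xg_mem_wUnip hL hr h t, hxp r t⟩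
  have hadd : ∀ r < D.nroots, ∀ t v, x r (t + v) = x r t * x r v := fun r hr t v => by
    obtain ⟨L, hL, h1, -⟩ := S.exists_word_pos r hr r hr (S.neg_ne hr).symm
    refine pelLift_injOn hc hn (S.isPGroup_wUnip (F := F) p L)
      (hwd L hL r hr h1 _) (mul_mem (hwd L hL r hr h1 t) (hwd L hL r hr h1 v)) (Subtype.ext ?_)
    rw [map_mul, hxσ, hxσ, hxσ, Subgroup.coe_mul, S.coe_xg, S.coe_xg, S.coe_xg, S.xU_add]
  have hstX : ∀ r < D.nroots, ∀ t, FreeGroup.lift (fun q : Fin D.nroots × F => x q.1 q.2)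
      (D.stX r t) = x r t := fun r hr t => by simp [ChevalleyDatum.stX, hr]
  have hrel : ∀ g ∈ D.steinbergRelsAB F,
      FreeGroup.lift (fun q : Fin D.nroots × F => x q.1 q.2) g = 1 := by
    rintro g (⟨r, t, v, hr, rfl⟩ | ⟨r, s, t, v, hr, hs', hsr, hsn, rfl⟩)
    · rw [map_mul, map_mul, map_inv, hstX r hr, hstX r hr, hstX r hr, mul_inv_eq_one]
      exact (hadd r hr t v).symm
    · obtain ⟨L, hL, h1, h2⟩ := S.exists_word_pos r hr s hs' hsn
      rw [map_mul, map_mul, map_mul, map_mul, map_inv, map_inv, map_inv, hstX r hr, hstX s hs',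
        ChevalleyDatum.stWord, map_list_prod, List.map_map, mul_inv_eq_one]
      have hword : ∀ q ∈ D.commWord F r s t v, q.1 < D.nroots ∧
          D.nroots / 2 ≤ Sys.wN (S.wprod L) q.1 := fun q hq => by
        simp only [ChevalleyDatum.commWord, List.mem_map] at hq
        obtain ⟨c', hc', rfl⟩ := hq
        obtain ⟨h3, h4, -⟩ := S.commTerms_wN (S.wprod_mem_weyl L) hr hs' h1 h2 hc'
        exact ⟨h3, show D.nroots / 2 ≤ Sys.wN (S.wprod L) c'.1 from by omega⟩
      rw [List.map_congr_left (g := fun q => x q.1 q.2) fun q hq =>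
        show ((FreeGroup.lift fun q : Fin D.nroots × F => x q.1 q.2) ∘ fun q : ℕ × F => D.stX q.1 q.2) q = x q.1 q.2
          from hstX _ (hword q hq).1 _]
      refine pelLift_injOn hc hn (S.isPGroup_wUnip (F := F) p L)
        (mul_mem (mul_mem (mul_mem (inv_mem (hwd L hL s hs' h2 v)) (inv_mem (hwd L hL r hr h1 t)))
          (hwd L hL s hs' h2 v)) (hwd L hL r hr h1 t))
        (list_prod_mem fun y hy => ?_) (Subtype.ext ?_)
      · obtain ⟨q, hq, rfl⟩ := List.mem_map.1 hy
        exact hwd L hL q.1 (hword q hq).1 (hword q hq).2 _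
      · rw [map_mul, map_mul, map_mul, map_inv, map_inv, hxσ, hxσ]
        push_cast
        rw [S.coe_xg, S.coe_xg, map_list_prod, List.map_map, SubmonoidClass.coe_list_prod,
          List.map_map, mul_assoc ((S.xU s v)⁻¹ * (S.xU r t)⁻¹), S.comm_wU hr hs' hsr hsn,
          show ((S.xU s v)⁻¹ * (S.xU r t)⁻¹) * (S.xU r t * S.xU s v * S.wU (D.commWord F r s t v)) =
            S.wU (D.commWord F r s t v) by group, Sys.wU]
        exact congrArg List.prod (List.map_congr_left fun q _ => by simp [hxσ, Sys.xg])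
  refine ⟨PresentedGroup.toGroup hrel, PresentedGroup.ext fun q => ?_⟩
  rw [MonoidHom.comp_apply, PresentedGroup.toGroup.of, hxσ]
  refine Subtype.ext (Units.ext ?_)
  rw [show (PresentedGroup.of q : D.SteinbergCover F) = (S.coverLift F).x q.1 q.2 from by
    simp [Sys.coverLift, Sys.liftOfRels, ChevalleyDatum.stX, PresentedGroup.of],
    (S.coverLift F).θ_x q.1.2]
  rfl

end Sys

end CfsgLib.Chev
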