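import Cfsg.Agent.Chev.Cover.Central.Split
import Cfsg.Agent.Chev.Cover.CertB2Split
import Cfsg.Agent.Chev.Cover.CertD4Split
import Cfsg.Agent.Chev.Cover.CertE6Split
import Cfsg.Agent.Chev.Cover.CertE7Split
import Cfsg.Agent.Chev.Cover.CertE8Split
import Cfsg.Agent.Chev.Cover.CertF4Split
import Cfsg.Agent.Chev.Cover.CertG2Split

/-!
# Torus data over fields with more than four elements
-/

set_option autoImplicit false
set_option linter.style.haveILetI false
set_option linter.unusedSectionVars false

namespace CfsgLib.Chev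

open Cfsg.Lie

universe u w

variable {F : Type u} [Field F]

theorem exists_scale_of_five (h5 : ∃ s : Finset F, 4 < s.card) :
    ∃ k : F, k ≠ 0 ∧ k + 1 ≠ 0 ∧ k ^ 2 + k + 1 ≠ 0 := by
  classical
  obtain ⟨s, hs⟩ := h5
  let P : Polynomial F := Polynomial.X ^ 2 + Polynomial.X + 1
  have hP : P ≠ 0 := fun e => by simpa [P] using congrArg (Polynomial.eval 0) e
  have hd : P.natDegree ≤ 2 := by simp only [P]; compute_degree
  have hc : (({0, -1} : Finset F) ∪ P.roots.toFinset).card < s.card := by
    refine lt_of_le_of_lt (Finset.card_union_le _ _) ?_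
    have h1 := (Multiset.toFinset_card_le P.roots).trans (Polynomial.card_roots' P)
    have h2 : ({0, -1} : Finset F).card ≤ 2 := Finset.card_le_two
    omega
  obtain ⟨k, -, hk⟩ := Finset.exists_mem_notMem_of_card_lt_card hc
  simp only [Finset.mem_union, Finset.mem_insert, Finset.mem_singleton, Multiset.mem_toFinset,
    not_or] at hk
  refine ⟨k, hk.1.1, fun e => hk.1.2 (eq_neg_of_add_eq_zero_left e), fun e => hk.2 ?_⟩
  rw [Polynomial.mem_roots hP, Polynomial.IsRoot.def]
  simpa [P] using e

theorem expPred_of_five (h5 : ∃ s : Finset F, 4 < s.card) {n : ℕ} (hn : n ≤ 3) :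
    ExpPred F (goodLe n) nullZero := by
  classical
  obtain ⟨s, hs⟩ := h5
  refine ⟨fun m hm => ?_, fun m hm k => ?_⟩
  · simp only [goodLe, Bool.and_eq_true, decide_eq_true_eq] at hm
    obtain ⟨hm0, hmn⟩ := hm
    by_contra hall
    push Not at hall
    have hpow : ∀ k : Fˣ, k ^ m.natAbs = 1 := fun k => by
      rcases Int.natAbs_eq m with e | e
      · have h := hall k
        rwa [e, zpow_natCast] at h
      · have h := hall k
        rwa [e, _root_.zpow_neg, inv_eq_one, zpow_natCast] at h
    have hle : (s.erase 0).card ≤ m.natAbs := by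
      refine le_trans (Finset.card_le_card (t := (Polynomial.nthRoots m.natAbs (1 : F)).toFinset) ?_)
        ((Multiset.toFinset_card_le _).trans (Polynomial.card_nthRoots _ _))
      intro x hx
      rw [Finset.mem_erase] at hx
      rw [Multiset.mem_toFinset, Polynomial.mem_nthRoots (by omega)]
      simpa using congrArg (Units.val : Fˣ → F) (hpow (Units.mk0 x hx.1))
    have h2 := Finset.pred_card_le_card_erase (a := (0 : F)) (s := s)
    omega
  · simp only [nullZero, decide_eq_true_eq] at hm
    rw [hm, zpow_zero]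

/-- The data from the certificates. -/
theorem centralData_of_chk {D : ChevalleyDatum} (S : Sys.{u} D) (h5 : ∃ s : Finset F, 4 < s.card)
    {n : ℕ} (hn : n ≤ 3) {scale : Bool} {W : List (ℕ × ℕ × ℕ)} (hc : canChk D (goodLe n) = true)
    (hp : pairsChk D (goodLe n) nullZero [] = true)
    (hs : sameChk D (goodLe n) nullZero 0 scale W = true) : S.CentralData.{u, w} F := by
  have hE := expPred_of_five h5 hn
  obtain ⟨k, hk, hk1, hk2⟩ := exists_scale_of_five h5
  have hn' := S.even_nroots
  refine ⟨fun r h1 h2 => S.csame_of_chk hE (d := 0) Nat.cast_zero hk hk1 hk2 hs h1 h2,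
    fun r h1 h2 => ?_, fun r s h1 h2 h3 => ?_⟩
  · simp only [canChk, List.all_eq_true, List.any_eq_true, List.mem_range] at hc
    obtain ⟨i, hi, hg⟩ := hc (r - D.nroots / 2) (by omega)
    rw [show D.nroots / 2 + (r - D.nroots / 2) = r by omega] at hg
    exact ⟨i, hi, hE.hgood _ hg⟩
  · simp only [pairsChk, List.all_eq_true, List.mem_range, Bool.or_eq_true, decide_eq_true_eq,
      List.not_mem_nil, or_false] at hp
    have h := hp (r - D.nroots / 2) (by omega) (s - D.nroots / 2) (by omega)
    rw [show D.nroots / 2 + (r - D.nroots / 2) = r by omega,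
      show D.nroots / 2 + (s - D.nroots / 2) = s by omega] at h
    rcases h with h | h
    · omega
    · exact cvanishes_of_sep hE h

theorem exists_centralData {D : ChevalleyDatum}
    (hD : D ∈ [chevG2, chevB2, chevD4, chevF4, chevE6, chevE7, chevE8])
    (h5 : ∃ s : Finset F, 4 < s.card) : ∃ S : Sys.{u} D, S.CentralData.{u, w} F := by
  simp only [List.mem_cons, List.not_mem_nil, or_false] at hD
  rcases hD with rfl | rfl | rfl | rfl | rfl | rfl | rfl
  · exact ⟨sysG2, centralData_of_chk _ h5 le_rfl SplitG2.can_le SplitG2.pairs_le SplitG2.same_five⟩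
  · exact ⟨sysB2, centralData_of_chk _ h5 (by omega) SplitB2.can_le SplitB2.pairs_le SplitB2.same_five⟩
  · exact ⟨sysD4, centralData_of_chk _ h5 (by omega) SplitD4.can_le SplitD4.pairs_le SplitD4.same_le⟩
  · exact ⟨sysF4, centralData_of_chk _ h5 (by omega) SplitF4.can_le SplitF4.pairs_le SplitF4.same_le⟩
  · exact ⟨sysE6, centralData_of_chk _ h5 (by omega) SplitE6.can_le SplitE6.pairs_le SplitE6.same_le⟩
  · exact ⟨sysE7, centralData_of_chk _ h5 (by omega) SplitE7.can_le SplitE7.pairs_le SplitE7.same_le⟩
  · exact ⟨sysE8, centralData_of_chk _ h5 (by omega) SplitE8.can_le SplitE8.pairs_le SplitE8.same_le⟩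

end CfsgLib.Chev
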