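import Cfsg.Agent.Chev.Cover.Central.Section

/-!
# Root groups in central extensions of a Chevalley group
-/

set_option autoImplicit false
set_option linter.style.haveILetI false
set_option linter.unusedSectionVars false

namespace CfsgLib.Chev

open Cfsg.Lie Matrix
open scoped commutatorElement

universe u w

section vanishing

variable {F : Type u} [Field F] {A : Type w} [Group A] {B : F → F → A}
  (hl : ∀ t t' v, B (t + t') v = B t v * B t' v) (hr : ∀ t v v', B t (v + v') = B t v * B t v')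

include hr in
theorem cpair_fix_right {c : F} (hc : c ≠ 1) (h : ∀ t v, B t (c * v) = B t v) (t v : F) : B t v = 1 := by
  have h1 := h t (v / (c - 1))
  rw [show c * (v / (c - 1)) = v + v / (c - 1) by
    field_simp [sub_ne_zero.2 hc]; ring, hr] at h1
  exact mul_eq_right.1 h1

include hl in
theorem cpair_fix_left {c : F} (hc : c ≠ 1) (h : ∀ t v, B (c * t) v = B t v) (t v : F) : B t v = 1 := by
  have h1 := h (t / (c - 1)) v
  rw [show c * (t / (c - 1)) = t + t / (c - 1) by
    field_simp [sub_ne_zero.2 hc]; ring, hl] at h1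
  exact mul_eq_right.1 h1

include hl hr in
/-- A pairing invariant under all scalars vanishes unless the field is very small. -/
theorem cpair_scale (h : ∀ k : Fˣ, ∀ t v, B ((k : F) * t) ((k : F) * v) = B t v)
    {k : F} (hk : k ≠ 0) (hk1 : k + 1 ≠ 0) (hk2 : k ^ 2 + k + 1 ≠ 0) (t v : F) : B t v = 1 := by
  have hk' : ∀ l : F, l ≠ 0 → ∀ t v, B (l * t) v = B t (l⁻¹ * v) := fun l hl0 t v => by
    have := h (Units.mk0 l hl0) t (l⁻¹ * v)
    simpa [mul_inv_cancel_left₀ hl0] using this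
  set δ := k⁻¹ + 1 - (k + 1)⁻¹ with hδ
  have hδ0 : δ ≠ 0 := fun h0 => hk2 (by
    rw [hδ] at h0
    field_simp at h0
    linear_combination h0)
  have key : ∀ z, B t (δ * z) = 1 := fun z => by
    have h1 : B ((k + 1) * t) z = B (k * t) z * B t z := by rw [add_mul, one_mul, hl]
    rw [hk' _ hk1, hk' _ hk, ← hr, show k⁻¹ * z + z = δ * z + (k + 1)⁻¹ * z by rw [hδ]; ring, hr] at h1
    exact right_eq_mul.1 h1
  rw [← mul_inv_cancel_left₀ hδ0 v]
  exact key _

end vanishing

theorem cvanishes_of_sep {D : ChevalleyDatum} {F : Type u} [Field F] {good null : ℤ → Bool}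
    (hE : ExpPred F good null) {r s : ℕ} (h : sepChk D good null r s = true) : Vanishes'.{u, w} D F r s := by
  intro A _ B hl hr hinv
  simp only [sepChk, List.any_eq_true, List.mem_range, Bool.or_eq_true, Bool.and_eq_true] at h
  obtain ⟨i, hi, (⟨h1, h2⟩ | ⟨h1, h2⟩) | ⟨j, hj, h1⟩⟩ := h
  · obtain ⟨k, hk⟩ := hE.hgood _ h2
    refine cpair_fix_right hr (c := ((k ^ D.cartan i s : Fˣ) : F)) (fun e => hk (Units.ext e)) fun t v => ?_
    have := hinv i hi k t v
    rwa [hE.hnull _ h1 k, Units.val_one, one_mul] at this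
  · obtain ⟨k, hk⟩ := hE.hgood _ h2
    refine cpair_fix_left hl (c := ((k ^ D.cartan i r : Fˣ) : F)) (fun e => hk (Units.ext e)) fun t v => ?_
    have := hinv i hi k t v
    rwa [hE.hnull _ h1 k, Units.val_one, one_mul] at this
  · obtain ⟨k, hk⟩ := hE.hgood _ h1
    refine cpair_fix_right hr
      (c := ((k ^ (D.cartan j r * D.cartan i s - D.cartan i r * D.cartan j s) : Fˣ) : F))
      (fun e => hk (Units.ext e)) fun t v => ?_
    have e1 := hinv i hi (k ^ D.cartan j r)
      (((k ^ D.cartan i r) ^ (-D.cartan j r) : Fˣ) * t) (((k ^ (-D.cartan i r)) ^ D.cartan j s : Fˣ) * v)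
    have e2 := hinv j hj (k ^ (-D.cartan i r)) t v
    rw [← mul_assoc, ← mul_assoc, ← Units.val_mul, ← Units.val_mul, ← _root_.zpow_mul, ← _root_.zpow_mul,
      ← _root_.zpow_add, ← _root_.zpow_mul, ← _root_.zpow_mul, ← _root_.zpow_add] at e1
    rw [← _root_.zpow_mul, ← _root_.zpow_mul] at e2
    rw [show D.cartan j r * D.cartan i r + D.cartan i r * -D.cartan j r = 0 by ring, zpow_zero,
      Units.val_one, one_mul,
      show D.cartan j r * D.cartan i s + -D.cartan i r * D.cartan j s =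
        D.cartan j r * D.cartan i s - D.cartan i r * D.cartan j s by ring] at e1
    rw [e1, show D.cartan i r * -D.cartan j r = -D.cartan i r * D.cartan j r by ring, e2]

theorem cvanishes_scale {D : ChevalleyDatum} {F : Type u} [Field F] {k : F} (hk : k ≠ 0) (hk1 : k + 1 ≠ 0) (hk2 : k ^ 2 + k + 1 ≠ 0)
    {r i : ℕ} (hi : i < D.rank) (h : (D.cartan i r).natAbs = 1) : Vanishes'.{u, w} D F r r := by
  intro A _ B hl hr hinv
  refine cpair_scale hl hr (fun l t v => ?_) hk hk1 hk2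
  rcases Int.natAbs_eq (D.cartan i r) with e | e <;> rw [h, Nat.cast_one] at e
  · have := hinv i hi l t v
    rwa [e, zpow_one] at this
  · have := hinv i hi l⁻¹ t v
    rwa [e, _root_.zpow_neg, zpow_one, inv_inv] at this

theorem cvanishes_scale₂ {D : ChevalleyDatum} {F : Type u} [Field F] {k : F} (hk : k ≠ 0) (hk1 : k + 1 ≠ 0) (hk2 : k ^ 2 + k + 1 ≠ 0)
    {r i j : ℕ} (hi : i < D.rank) (hj : j < D.rank)
    (h : (D.cartan i r + D.cartan j r).natAbs = 1) : Vanishes'.{u, w} D F r r := by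
  intro A _ B hl hr hinv
  refine cpair_scale hl hr (fun l t v => ?_) hk hk1 hk2
  obtain ⟨l', hl'⟩ : ∃ l' : Fˣ, l' ^ (D.cartan i r + D.cartan j r) = l := by
    rcases Int.natAbs_eq (D.cartan i r + D.cartan j r) with e | e <;> rw [h, Nat.cast_one] at e
    · exact ⟨l, by rw [e, zpow_one]⟩
    · exact ⟨l⁻¹, by rw [e, _root_.zpow_neg, zpow_one, inv_inv]⟩
  have e1 := hinv i hi l' (((l' ^ D.cartan j r : Fˣ) : F) * t) (((l' ^ D.cartan j r : Fˣ) : F) * v)
  rw [← mul_assoc, ← mul_assoc, ← Units.val_mul, ← _root_.zpow_add, hl', hinv j hj l' t v] at e1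
  exact e1

namespace Sys

variable {D : ChevalleyDatum} (S : Sys.{u} D) {F : Type u} [Field F]

/-- Lifts of two root groups commute in every central extension. -/
def CRootComm (r s : ℕ) : Prop :=
  ∀ (Δ : Type w) [Group Δ] (τ : Δ →* D.group F), IsCentralOnto τ →
    ∀ X Y t v, τ X = S.xg r t → τ Y = S.xg s v → X * Y = Y * X

/-- Commuting root groups define a pairing. -/
theorem cexists_pairing {Δ : Type w} [Group Δ] {τ : Δ →* D.group F} (c : IsCentralOnto τ)
    (r s : ℕ) (hc : ∀ t v : F, S.xg r t * S.xg s v = S.xg s v * S.xg r t) :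
    ∃ B : F → F → Δ, (∀ t t' v, B (t + t') v = B t v * B t' v) ∧
      (∀ t v v', B t (v + v') = B t v * B t v') ∧
      (∀ X Y t v, τ X = S.xg r t → τ Y = S.xg s v → ⁅X, Y⁆ = B t v) ∧
      
      ∀ (g : D.group F) t v r' s' t' v', g * S.xg r t * g⁻¹ = S.xg r' t' →
        g * S.xg s v * g⁻¹ = S.xg s' v' → ∀ X Y, τ X = S.xg r' t' → τ Y = S.xg s' v' →
        ⁅X, Y⁆ = B t v := by
  choose L hL using c.surj
  set B : F → F → Δ := fun t v => ⁅L (S.xg r t), L (S.xg s v)⁆ with hB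
  have hker : ∀ t v, B t v ∈ τ.ker := fun t v => by
    rw [MonoidHom.mem_ker, hB, map_commutatorElement, hL, hL, commutatorElement_eq_one_iff_mul_comm, hc]
  have hwd : ∀ X Y t v, τ X = S.xg r t → τ Y = S.xg s v → ⁅X, Y⁆ = B t v := fun X Y t v hX hY =>
    c.comm_eq (hX.trans (hL _).symm) (hY.trans (hL _).symm)
  refine ⟨B, fun t t' v => ?_, fun t v v' => ?_, hwd, 
    fun g t v r' s' t' v' h1 h2 X Y hX hY => ?_⟩
  · rw [← hwd (L (S.xg r t) * L (S.xg r t')) (L (S.xg s v)) (t + t') v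
        (by rw [map_mul, hL, hL, S.xg_add]) (hL _),
      show ⁅L (S.xg r t) * L (S.xg r t'), L (S.xg s v)⁆ =
        L (S.xg r t) * ⁅L (S.xg r t'), L (S.xg s v)⁆ * (L (S.xg r t))⁻¹ * ⁅L (S.xg r t), L (S.xg s v)⁆ by
        simp only [commutatorElement_def]; group]
    show L (S.xg r t) * B t' v * (L (S.xg r t))⁻¹ * B t v = _
    rw [c.conj_ker _ (hker t' v), c.comm _ (hker t v)]
  · rw [← hwd (L (S.xg r t)) (L (S.xg s v) * L (S.xg s v')) t (v + v') (hL _)
        (by rw [map_mul, hL, hL, S.xg_add]),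
      show ⁅L (S.xg r t), L (S.xg s v) * L (S.xg s v')⁆ =
        ⁅L (S.xg r t), L (S.xg s v)⁆ * (L (S.xg s v) * ⁅L (S.xg r t), L (S.xg s v')⁆ * (L (S.xg s v))⁻¹) by
        simp only [commutatorElement_def]; group]
    show B t v * (L (S.xg s v) * B t v' * (L (S.xg s v))⁻¹) = _
    rw [c.conj_ker _ (hker t v')]
  · rw [c.comm_eq (x' := L g * L (S.xg r t) * (L g)⁻¹) (y' := L g * L (S.xg s v) * (L g)⁻¹)
        (by rw [hX, map_mul, map_mul, map_inv, hL, hL, h1])
        (by rw [hY, map_mul, map_mul, map_inv, hL, hL, h2]),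
      show ⁅L g * L (S.xg r t) * (L g)⁻¹, L g * L (S.xg s v) * (L g)⁻¹⁆ =
        L g * ⁅L (S.xg r t), L (S.xg s v)⁆ * (L g)⁻¹ by simp only [commutatorElement_def]; group]
    exact c.conj_ker _ (hker t v)

theorem crootComm_of_vanishes {r s : ℕ} (hr : r < D.nroots) (hs : s < D.nroots)
    (hc : ∀ t v : F, S.xg r t * S.xg s v = S.xg s v * S.xg r t) (hV : Vanishes'.{u, w} D F r s) :
    S.CRootComm.{u, w} (F := F) r s := by
  intro Δ _ τ c X Y t v hX hY
  obtain ⟨B, hl, hr', hwd, hconj⟩ := S.cexists_pairing c r s hc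
  rw [← commutatorElement_eq_one_iff_mul_comm, hwd X Y t v hX hY]
  refine hV Δ B hl hr' (fun i hi a t v => ?_) t v
  obtain ⟨X', hX'⟩ := c.surj (S.xg r (((a ^ D.cartan i r : Fˣ) : F) * t))
  obtain ⟨Y', hY'⟩ := c.surj (S.xg s (((a ^ D.cartan i s : Fˣ) : F) * v))
  rw [← hwd X' Y' _ _ hX' hY']
  exact hconj (S.hG i a) t v r s _ _ (S.hG_conj hi hr a t) (S.hG_conj hi hs a v) X' Y' hX' hY'

theorem crootComm_of_dec {d : ℕ} (hd : (d : F) = 0) {good null : ℤ → Bool} (hE : ExpPred F good null)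
    {r s a b k : ℕ} (hr : r < D.nroots) (h : decChk D good null d r s a b k = true) :
    S.CRootComm.{u, w} (F := F) r s := by
  simp only [decChk, Bool.and_eq_true, decide_eq_true_eq] at h
  obtain ⟨⟨⟨⟨⟨⟨ha, hb⟩, hab⟩, hab'⟩, hca⟩, hcb⟩, h⟩ := h
  split at h
  · exact absurd h Bool.false_ne_true
  rename_i c₀ hk
  simp only [Bool.and_eq_true, decide_eq_true_eq, List.all_eq_true] at h
  obtain ⟨⟨⟨hcs, hcu⟩, hcd⟩, hothers⟩ := h
  intro Δ _ τ c X Y t v hX hY
  -- the image of the centraliser of `X`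
  let C : Subgroup (D.group F) := (Subgroup.centralizer {X}).map τ
  have hmem : ∀ Z, (∀ W, τ W = Z → X * W = W * X) → Z ∈ C := fun Z hZ => by
    obtain ⟨W, rfl⟩ := c.surj Z
    exact ⟨W, Subgroup.mem_centralizer_singleton_iff.2 (hZ W rfl).symm, rfl⟩
  have hget : ∀ Z ∈ C, ∀ W, τ W = Z → X * W = W * X := by
    rintro Z ⟨W', hW', rfl⟩ W hW
    have h1 : X * W' = W' * X := (Subgroup.mem_centralizer_singleton_iff.1 hW').symm
    rw [← commutatorElement_eq_one_iff_mul_comm, c.comm_eq (x' := X) rfl hW,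
      commutatorElement_eq_one_iff_mul_comm]
    exact h1
  obtain ⟨A₀, hA₀⟩ := c.surj (S.xg a (1 : F))
  have hword : ∀ t' v', S.xg a t' * S.xg b v' * (S.xg a t')⁻¹ * (S.xg b v')⁻¹ ∈ C := by
    intro t' v'
    obtain ⟨A, hA⟩ := c.surj (S.xg a t')
    obtain ⟨B, hB⟩ := c.surj (S.xg b v')
    refine ⟨⁅A, B⁆, Subgroup.mem_centralizer_singleton_iff.2 ?_, by rw [map_commutatorElement, hA, hB, commutatorElement_def]⟩
    have h1 : τ (X * A * X⁻¹) = τ A := by
      rw [map_mul, map_mul, map_inv, hX, hA, S.comm_of_chk hd hr ha hca, mul_inv_cancel_right]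
    have h2 : τ (X * B * X⁻¹) = τ B := by
      rw [map_mul, map_mul, map_inv, hX, hB, S.comm_of_chk hd hr hb hcb, mul_inv_cancel_right]
    rw [eq_comm, ← mul_inv_eq_iff_eq_mul,
      show X * ⁅A, B⁆ * X⁻¹ = ⁅X * A * X⁻¹, X * B * X⁻¹⁆ by simp only [commutatorElement_def]; group,
      c.comm_eq h1 h2]
  have hoth : ∀ c' ∈ (D.commTerms a b).take k ++ (D.commTerms a b).drop (k + 1), ∀ z : F,
      S.xg c'.1 z ∈ C := by
    intro c' hc' z
    obtain ⟨⟨h1, h2⟩, h3⟩ := hothers c' hc'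
    exact hmem _ fun W hW => S.crootComm_of_vanishes hr h1 (S.comm_of_chk hd hr h1 h2)
      (cvanishes_of_sep hE h3) Δ τ c X W t z hX hW
  have hkl : k < (D.commTerms a b).length := by
    rw [List.getElem?_eq_some_iff] at hk
    exact hk.1
  have hsplit : D.commTerms a b =
      (D.commTerms a b).take k ++ c₀ :: (D.commTerms a b).drop (k + 1) := by
    conv_lhs => rw [← List.take_append_drop k (D.commTerms a b), List.drop_eq_getElem_cons hkl]
    rw [(List.getElem?_eq_some_iff.1 hk).2]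
  -- every element of `X_s` lies in that image
  have hs' : ∀ z : F, S.xg s z ∈ C := by
    intro z
    obtain ⟨ε, hε, hεε⟩ : ∃ ε : ℤ, c₀.2.1 = ε ∧ ε * ε = 1 := ⟨_, rfl, by
      rw [← Int.natAbs_mul_self, hcu]; rfl⟩
    set t' : F := -((ε : F) * z)
    have hcommW : (S.xg b 1)⁻¹ * (S.xg a t')⁻¹ * S.xg b 1 * S.xg a t' ∈ C := by
      have hn : ∀ (r : ℕ) (w : F), S.xg r (-w) = (S.xg r w)⁻¹ := fun r w => (S.xg_inv r w).symm
      have := hword (-t') (-1)
      rw [hn a t', hn b 1, inv_inv, inv_inv] at this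
      have h2 : (S.xg b (1 : F))⁻¹ * (S.xg a t')⁻¹ * S.xg b 1 * S.xg a t' =
          ((S.xg a t')⁻¹ * (S.xg b (1 : F))⁻¹ * S.xg a t' * S.xg b 1)⁻¹ := by group
      rw [h2]; exact inv_mem this
    have himg : (S.xg b 1)⁻¹ * (S.xg a t')⁻¹ * S.xg b 1 * S.xg a t' =
        ((D.commWord F a b t' 1).map fun q => S.xg q.1 q.2).prod := by
      refine Subtype.ext ?_
      push_cast
      rw [List.map_map]
      show (S.xU b 1)⁻¹ * (S.xU a t')⁻¹ * S.xU b 1 * S.xU a t' = S.wU (D.commWord F a b t' 1)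
      rw [mul_assoc _ (S.xU b 1) (S.xU a t'), S.comm_wU ha hb hab hab']
      group
    rw [himg, ChevalleyDatum.commWord, hsplit, List.map_append, List.map_cons, List.map_append, List.map_cons, List.prod_append, List.prod_cons] at hcommW
    have hP : ∀ l : List (ℕ × ℤ × ℕ × ℕ),
        (∀ c' ∈ l, c' ∈ (D.commTerms a b).take k ++ (D.commTerms a b).drop (k + 1)) →
        ((l.map fun c' => (c'.1, (c'.2.1 : F) * (-t') ^ c'.2.2.1 * (1 : F) ^ c'.2.2.2)).map
          fun q => S.xg q.1 q.2).prod ∈ C := by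
      intro l hl
      refine list_prod_mem fun y hy => ?_
      simp only [List.map_map, List.mem_map, Function.comp_apply] at hy
      obtain ⟨c', hc', rfl⟩ := hy
      exact hoth c' (hl c' hc') _
    have h1 := hP _ fun c' hc' => List.mem_append_left _ hc'
    have h2 := hP ((D.commTerms a b).drop (k + 1)) fun c' hc' => List.mem_append_right _ hc'
    have h3 := mul_mem (mul_mem (inv_mem h1) hcommW) (inv_mem h2)
    simp only [mul_assoc, inv_mul_cancel_left, mul_inv_cancel, mul_one] at h3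
    rw [hcs, hcd, hε, one_pow, pow_one, mul_one, show -t' = (ε : F) * z from _root_.neg_neg _, ← mul_assoc,
      ← Int.cast_mul, hεε, Int.cast_one, one_mul] at h3
    exact h3
  exact hget _ (hs' v) Y hY

theorem csame_of_chk {good null : ℤ → Bool} (hE : ExpPred F good null) {d : ℕ} (hd : (d : F) = 0)
    {scale : Bool} {k : F} (hk : k ≠ 0) (hk1 : k + 1 ≠ 0) (hk2 : k ^ 2 + k + 1 ≠ 0) {W : List (ℕ × ℕ × ℕ)}
    (h : sameChk D good null d scale W = true) {r : ℕ} (h1 : D.nroots / 2 ≤ r) (h2 : r < D.nroots) :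
    S.CRootComm.{u, w} (F := F) r r := by
  simp only [sameChk, List.all_eq_true, List.mem_range] at h
  obtain ⟨j, rfl⟩ : ∃ j, r = D.nroots / 2 + j := ⟨r - D.nroots / 2, by omega⟩
  have hn := S.even_nroots
  have hj := h j (by omega)
  simp only [Bool.or_eq_true, Bool.and_eq_true, List.any_eq_true, List.mem_range,
    decide_eq_true_eq] at hj
  rcases hj with ⟨-, i, hi, ha | ⟨i', hi', ha⟩⟩ | hj
  · exact S.crootComm_of_vanishes h2 h2
      (fun t v => by rw [← S.xg_add, ← S.xg_add, add_comm t v]) (cvanishes_scale hk hk1 hk2 hi ha)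
  · exact S.crootComm_of_vanishes h2 h2
      (fun t v => by rw [← S.xg_add, ← S.xg_add, add_comm t v]) (cvanishes_scale₂ hk hk1 hk2 hi hi' ha)
  · exact S.crootComm_of_dec hd hE h2 hj

end Sys

end CfsgLib.Chev
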