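import Cfsg.Agent.Chev.Cover.Central.Roots
import Cfsg.Agent.Chev.Cover.Groups
import Cfsg.Agent.Chev.Cover.Universal

/-!
# Steinberg's group is universal among central extensions

In a central extension of the Chevalley group the commutators of lifted torus elements with lifted
root elements give canonical lifts of all root elements, which satisfy (R1) and (R2).
-/

set_option autoImplicit false
set_option linter.style.haveILetI false
set_option linter.unusedSectionVars false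

namespace CfsgLib.Chev

open Cfsg.Lie Matrix
open scoped commutatorElement

universe u w

namespace Sys

variable {D : ChevalleyDatum} (S : Sys.{u} D) {F : Type u} [Field F]

/-- `g` multiplies each root group by a scalar. -/
def Diag (g : D.group F) : Prop :=
  ∀ r < D.nroots, ∃ κ : F, ∀ t, g * S.xg r t * g⁻¹ = S.xg r (κ * t)

theorem diag_hG {i : ℕ} (hi : i < D.rank) (a : Fˣ) : S.Diag (S.hG i a) := fun r hr =>
  ⟨((a ^ D.cartan i r : Fˣ) : F), fun t => S.hG_conj hi hr a t⟩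

theorem closure_xg : Subgroup.closure {g : D.group F | ∃ (r : ℕ) (t : F), r < D.nroots ∧ g = S.xg r t} = ⊤ := by
  have h := congrArg (Subgroup.map (S.coverLift F).θ) (S.coverLift F).top
  rw [MonoidHom.map_closure, Subgroup.map_top_of_surjective _ (S.coverLift F).θ_surjective] at h
  rw [← h]
  congr 1
  ext g
  constructor
  · rintro ⟨r, t, hr, rfl⟩
    exact ⟨(S.coverLift F).x r t, ⟨r, t, hr, rfl⟩, Subtype.ext ((S.coverLift F).π_x r hr t)⟩
  · rintro ⟨_, ⟨r, t, hr, rfl⟩, rfl⟩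
    exact ⟨r, t, hr, Subtype.ext ((S.coverLift F).π_x r hr t)⟩

/-- Elements multiplying each root group by scalars commute. -/
theorem diag_comm {g g' : D.group F} (hg : S.Diag g) (hg' : S.Diag g') : g * g' = g' * g := by
  have hz : g'⁻¹ * g⁻¹ * g' * g ∈ Subgroup.center (D.group F) := by
    rw [Subgroup.mem_center_iff]
    intro y
    have hy : y ∈ Subgroup.centralizer {g'⁻¹ * g⁻¹ * g' * g} := by
      have h := S.closure_xg (F := F)
      refine (show (⊤ : Subgroup (D.group F)) ≤ _ from ?_) (Subgroup.mem_top y)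
      rw [← h, Subgroup.closure_le]
      rintro _ ⟨r, t, hr, rfl⟩
      rw [SetLike.mem_coe, Subgroup.mem_centralizer_singleton_iff]
      obtain ⟨a, ha⟩ := hg r hr
      obtain ⟨b, hb⟩ := hg' r hr
      have e : g * g' * S.xg r t * (g * g')⁻¹ = g' * g * S.xg r t * (g' * g)⁻¹ := by
        calc g * g' * S.xg r t * (g * g')⁻¹ = g * (g' * S.xg r t * g'⁻¹) * g⁻¹ := by group
          _ = S.xg r (a * (b * t)) := by rw [hb, ha]
          _ = S.xg r (b * (a * t)) := by rw [mul_left_comm]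
          _ = g' * (g * S.xg r t * g⁻¹) * g'⁻¹ := by rw [ha, hb]
          _ = g' * g * S.xg r t * (g' * g)⁻¹ := by group
      calc S.xg r t * (g'⁻¹ * g⁻¹ * g' * g)
          = g'⁻¹ * g⁻¹ * (g * g' * S.xg r t * (g * g')⁻¹) * (g' * g) := by group
        _ = g'⁻¹ * g⁻¹ * (g' * g * S.xg r t * (g' * g)⁻¹) * (g' * g) := by rw [e]
        _ = g'⁻¹ * g⁻¹ * g' * g * S.xg r t := by group
    exact Subgroup.mem_centralizer_singleton_iff.1 hy
  rw [S.center_group, Subgroup.mem_bot] at hz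
  calc g * g' = g * g' * (g'⁻¹ * g⁻¹ * g' * g) := by rw [hz, mul_one]
    _ = g' * g := by group

/-- The monomial element of a word, in the group. -/
theorem exists_nG {L : List ℕ} (hL : ∀ q ∈ L, q < D.rank) : ∃ n : D.group F, ∀ r < D.nroots,
    Sys.wN (S.wprod L) r < D.nroots ∧
      ∃ c : Fˣ, ∀ t, n * S.xg r t * n⁻¹ = S.xg (Sys.wN (S.wprod L) r) ((c : F) * t) := by
  have hn : (S.nw F L : GL D.Idx F) ∈ D.group F := by
    clear hL
    induction L with
    | nil => exact one_mem _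
    | cons q L ih => rw [S.nw_cons]; exact mul_mem (S.wU_mem_group' _) ih
  refine ⟨⟨S.nw F L, hn⟩, fun r hr => ?_⟩
  obtain ⟨c, hc⟩ := S.acts_nw (F := F) hL ⟨r, hr⟩
  simp only [Sys.wN, dif_pos hr]
  exact ⟨Fin.is_lt _, c, fun t => Subtype.ext (hc t)⟩

/-- Every positive root pair is separated, every root group is abelian in central extensions and
some torus element moves each positive root. -/
structure CentralData (F : Type u) [Field F] : Prop where
  hsame : ∀ r, D.nroots / 2 ≤ r → r < D.nroots → S.CRootComm.{u, w} (F := F) r r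
  hcan : ∀ r, D.nroots / 2 ≤ r → r < D.nroots → ∃ i < D.rank, ∃ a : Fˣ, a ^ D.cartan i r ≠ 1
  hvan : ∀ r s, D.nroots / 2 ≤ r → r < s → s < D.nroots → Vanishes'.{u, w} D F r s

theorem exists_pos_word {r : ℕ} (hr : r < D.nroots) :
    ∃ L : List ℕ, (∀ q ∈ L, q < D.rank) ∧ D.nroots / 2 ≤ Sys.wN (S.wprod L) r := by
  obtain ⟨L, hL, h, -⟩ := S.exists_word_pos r hr r hr (S.neg_ne hr).symm
  exact ⟨L, hL, h⟩

theorem CentralData.same {S : Sys.{u} D} (C : S.CentralData.{u, w} F) {r : ℕ} (hr : r < D.nroots) :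
    S.CRootComm.{u, w} (F := F) r r := by
  intro Δ _ τ c X Y t v hX hY
  obtain ⟨L, hL, hpos⟩ := S.exists_pos_word hr
  obtain ⟨n, hn⟩ := S.exists_nG (F := F) hL
  obtain ⟨hlt, k, hk⟩ := hn r hr
  obtain ⟨N, rfl⟩ := c.surj n
  have := C.hsame _ hpos hlt Δ τ c (N * X * N⁻¹) (N * Y * N⁻¹) _ _
    (by rw [map_mul, map_mul, map_inv, hX, hk]) (by rw [map_mul, map_mul, map_inv, hY, hk])
  calc X * Y = N⁻¹ * ((N * X * N⁻¹) * (N * Y * N⁻¹)) * N := by group
    _ = N⁻¹ * ((N * Y * N⁻¹) * (N * X * N⁻¹)) * N := by rw [this]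
    _ = Y * X := by group

theorem CentralData.moves {S : Sys.{u} D} (C : S.CentralData.{u, w} F) {r : ℕ} (hr : r < D.nroots) :
    ∃ (g : D.group F) (κ : F), S.Diag g ∧ κ ≠ 1 ∧ ∀ t, g * S.xg r t * g⁻¹ = S.xg r (κ * t) := by
  obtain ⟨L, hL, hpos⟩ := S.exists_pos_word hr
  obtain ⟨n, hn⟩ := S.exists_nG (F := F) hL
  obtain ⟨hlt, k, hk⟩ := hn r hr
  obtain ⟨i, hi, a, ha⟩ := C.hcan _ hpos hlt
  set h := S.hG i a
  have hd : ∀ s < D.nroots, ∀ t, n⁻¹ * h * n * S.xg s t * (n⁻¹ * h * n)⁻¹ =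
      S.xg s (((a ^ D.cartan i (Sys.wN (S.wprod L) s) : Fˣ) : F) * t) := by
    intro s hs t
    obtain ⟨hlt', k', hk'⟩ := hn s hs
    calc n⁻¹ * h * n * S.xg s t * (n⁻¹ * h * n)⁻¹
        = n⁻¹ * (h * (n * S.xg s t * n⁻¹) * h⁻¹) * n := by group
      _ = n⁻¹ * S.xg (Sys.wN (S.wprod L) s)
          (((a ^ D.cartan i (Sys.wN (S.wprod L) s) : Fˣ) : F) * ((k' : F) * t)) * n := by
          rw [hk', S.hG_conj hi hlt']
      _ = n⁻¹ * (n * S.xg s (((a ^ D.cartan i (Sys.wN (S.wprod L) s) : Fˣ) : F) * t) * n⁻¹) * n := by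
          rw [hk', mul_left_comm]
      _ = _ := by group
  exact ⟨n⁻¹ * h * n, _, fun s hs => ⟨_, hd s hs⟩, fun e => ha (Units.ext e), hd r hr⟩

variable {Δ : Type w} [Group Δ] {τ : Δ →* D.group F}

/-- **Steinberg relations in central extensions.** -/
theorem exists_cover_hom (C : S.CentralData.{u, w} F) (c : IsCentralOnto τ) :
    ∃ μ : D.SteinbergCover F →* Δ, τ.comp μ = (S.coverLift F).θ := by
  classical
  choose L hL using c.surj
  have hex : ∀ r, ∃ x : D.group F × F, r < D.nroots →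
      S.Diag x.1 ∧ x.2 ≠ 1 ∧ ∀ t, x.1 * S.xg r t * x.1⁻¹ = S.xg r (x.2 * t) := fun r => by
    by_cases h : r < D.nroots
    · obtain ⟨g, κ, h1, h2, h3⟩ := C.moves h
      exact ⟨(g, κ), fun _ => ⟨h1, h2, h3⟩⟩
    · exact ⟨(1, 0), fun h' => absurd h' h⟩
  choose gk hgk using hex
  set lam : ℕ → F → Δ := fun r t => ⁅L (gk r).1, L (S.xg r (t / ((gk r).2 - 1)))⁆ with hlam
  have himg : ∀ r < D.nroots, ∀ t, τ (lam r t) = S.xg r t := by
    intro r hr t
    obtain ⟨-, h2, h3⟩ := hgk r hr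
    rw [hlam, map_commutatorElement, hL, hL, commutatorElement_def, h3, S.xg_inv, ← S.xg_add]
    congr 1
    rw [← sub_eq_add_neg, ← sub_one_mul, mul_div_cancel₀ _ (sub_ne_zero.2 h2)]
  have hadd : ∀ r < D.nroots, ∀ t v, lam r (t + v) = lam r t * lam r v := by
    intro r hr t v
    set x := L (S.xg r (t / ((gk r).2 - 1)))
    set y := L (S.xg r (v / ((gk r).2 - 1)))
    set H := L (gk r).1
    have h3 : lam r (t + v) = ⁅H, x * y⁆ :=
      c.comm_eq rfl (by rw [hL, map_mul, hL, hL, ← S.xg_add, add_div])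
    have h4 : x * ⁅H, y⁆ = ⁅H, y⁆ * x :=
      C.same hr Δ τ c x ⁅H, y⁆ (t / ((gk r).2 - 1)) v (hL _) (himg r hr v)
    rw [h3, show ⁅H, x * y⁆ = ⁅H, x⁆ * (x * ⁅H, y⁆ * x⁻¹) by
      simp only [commutatorElement_def]; group, h4, mul_inv_cancel_right]
  have hequiv : ∀ G : Δ, S.Diag (τ G) → ∀ r < D.nroots, ∀ κ : F,
      (∀ t, τ G * S.xg r t * (τ G)⁻¹ = S.xg r (κ * t)) → ∀ t, G * lam r t * G⁻¹ = lam r (κ * t) := by
    intro G hG r hr κ hκ t
    show G * ⁅_, _⁆ * G⁻¹ = ⁅_, _⁆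
    rw [show ∀ x y g : Δ, g * ⁅x, y⁆ * g⁻¹ = ⁅g * x * g⁻¹, g * y * g⁻¹⁆ from fun x y g => by
      simp only [commutatorElement_def]; group]
    refine c.comm_eq ?_ ?_
    · rw [map_mul, map_mul, map_inv, hL, S.diag_comm hG (hgk r hr).1, mul_inv_cancel_right]
    · rw [map_mul, map_mul, map_inv, hL, hL, hκ, mul_div_assoc]
  -- independence of the torus element
  have hindep : ∀ r < D.nroots, ∀ g : D.group F, S.Diag g → ∀ κ : F, κ ≠ 1 →
      (∀ t, g * S.xg r t * g⁻¹ = S.xg r (κ * t)) →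
      ∀ t X, τ X = S.xg r (t / (κ - 1)) → ⁅L g, X⁆ = lam r t := by
    intro r hr g hg κ hκ1 hκ t X hX
    rw [c.comm_eq (x' := L g) (y' := lam r (t / (κ - 1))) rfl (hX.trans (himg r hr _).symm),
      commutatorElement_def, hequiv (L g) (by rwa [hL]) r hr κ (by rw [hL]; exact hκ)]
    have hneg : (lam r (t / (κ - 1)))⁻¹ = lam r (-(t / (κ - 1))) := by
      refine inv_eq_of_mul_eq_one_right ?_
      rw [← hadd r hr, add_neg_cancel]
      have := hadd r hr 0 0
      rw [add_zero] at this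
      exact left_eq_mul.1 this
    rw [hneg, ← hadd r hr, ← sub_eq_add_neg, ← sub_one_mul, mul_div_cancel₀ _ (sub_ne_zero.2 hκ1)]
  -- conjugation by monomial elements
  have hmono : ∀ Lw : List ℕ, (∀ q ∈ Lw, q < D.rank) → ∃ N : Δ, ∀ r < D.nroots, ∀ t : F,
      ∃ t' : F, N * lam r t * N⁻¹ = lam (Sys.wN (S.wprod Lw) r) t' := by
    intro Lw hLw
    obtain ⟨n, hn⟩ := S.exists_nG (F := F) hLw
    refine ⟨L n, fun r hr t => ?_⟩
    obtain ⟨hlt, k, hk⟩ := hn r hr
    obtain ⟨hd, hne, hact⟩ := hgk r hr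
    refine ⟨(k : F) * t, ?_⟩
    have hd' : S.Diag (n * (gk r).1 * n⁻¹) := by
      intro s' hs'
      set s : Fin D.nroots := (S.wprod Lw).symm ⟨s', hs'⟩
      have hws : Sys.wN (S.wprod Lw) s = s' := by rw [Sys.wN_eq, Equiv.apply_symm_apply]
      obtain ⟨-, k', hk'⟩ := hn s s.2
      obtain ⟨b, hb⟩ := hd s s.2
      refine ⟨b, fun v => ?_⟩
      have e : S.xg s' v = n * S.xg s ((k' : F)⁻¹ * v) * n⁻¹ := by
        rw [hk', hws, mul_inv_cancel_left₀ k'.ne_zero]
      calc n * (gk r).1 * n⁻¹ * S.xg s' v * (n * (gk r).1 * n⁻¹)⁻¹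
          = n * ((gk r).1 * S.xg s ((k' : F)⁻¹ * v) * (gk r).1⁻¹) * n⁻¹ := by rw [e]; group
        _ = _ := by
          rw [hb, hk', hws]; congr 1; field_simp
    have hsc : ∀ v, n * (gk r).1 * n⁻¹ * S.xg (Sys.wN (S.wprod Lw) r) v * (n * (gk r).1 * n⁻¹)⁻¹ =
        S.xg (Sys.wN (S.wprod Lw) r) ((gk r).2 * v) := by
      intro v
      have e : S.xg (Sys.wN (S.wprod Lw) r) v = n * S.xg r ((k : F)⁻¹ * v) * n⁻¹ := by
        rw [hk, mul_inv_cancel_left₀ k.ne_zero]
      calc n * (gk r).1 * n⁻¹ * S.xg (Sys.wN (S.wprod Lw) r) v * (n * (gk r).1 * n⁻¹)⁻¹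
          = n * ((gk r).1 * S.xg r ((k : F)⁻¹ * v) * (gk r).1⁻¹) * n⁻¹ := by rw [e]; group
        _ = _ := by rw [hact, hk]; congr 1; field_simp
    rw [← hindep _ hlt _ hd' _ hne hsc ((k : F) * t) (L n * L (S.xg r (t / ((gk r).2 - 1))) * (L n)⁻¹)
      (by rw [map_mul, map_mul, map_inv, hL, hL, hk, mul_div_assoc]),
      show ∀ x y g : Δ, g * ⁅x, y⁆ * g⁻¹ = ⁅g * x * g⁻¹, g * y * g⁻¹⁆ from fun x y g => by
        simp only [commutatorElement_def]; group]
    exact c.comm_eq (by rw [map_mul, map_mul, map_inv, hL, hL, hL]) rfl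
  let Λ : S.CSection τ := { lam := lam, proj := fun r hr _ t => himg r hr t, add := fun r hr _ t v => hadd r hr t v }
  have hQ := Λ.rel_all c
    (fun i hi a => ⟨L (S.hG i a), fun r hr _ t => hequiv _ (by rw [hL]; exact S.diag_hG hi a) r hr _
      (fun t => by rw [hL]; exact S.hG_conj hi hr a t) t⟩)
    fun i s h1 h2 h3 => Or.inl (C.hvan i s h1 h2 h3)
  have hcomm : ∀ (r s : ℕ) (t v : F), r < D.nroots → s < D.nroots → s ≠ r → s ≠ D.neg r →
      (lam s v)⁻¹ * (lam r t)⁻¹ * lam s v * lam r t =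
        ((D.commWord F r s t v).map fun q => lam q.1 q.2).prod := by
    intro r s t v hr hs hsr hsn
    obtain ⟨Lw, hLw, h1, h2⟩ := S.exists_word_pos r hr s hs hsn
    obtain ⟨N, hN⟩ := hmono Lw hLw
    have hmem : ∀ a < D.nroots, D.nroots / 2 ≤ Sys.wN (S.wprod Lw) a → ∀ u : F,
        lam a u ∈ (Λ.gen (D.nroots / 2)).comap (MulAut.conj N).toMonoidHom := by
      intro a ha hap u
      obtain ⟨u', hu'⟩ := hN a ha u
      rw [Subgroup.mem_comap, MulEquiv.coe_toMonoidHom, MulAut.conj_apply, hu']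
      exact Λ.lam_mem hap (by simp only [Sys.wN, dif_pos ha]; exact Fin.is_lt _) u'
    have hword : ∀ q ∈ D.commWord F r s t v, q.1 < D.nroots ∧ D.nroots / 2 ≤ Sys.wN (S.wprod Lw) q.1 := by
      intro q hq
      simp only [ChevalleyDatum.commWord, List.mem_map] at hq
      obtain ⟨c', hc', rfl⟩ := hq
      obtain ⟨h3, h4, -⟩ := S.commTerms_wN (S.wprod_mem_weyl Lw) hr hs h1 h2 hc'
      exact ⟨h3, show D.nroots / 2 ≤ Sys.wN (S.wprod Lw) c'.1 from by omega⟩
    set l := ((D.commWord F r s t v).map fun q => lam q.1 q.2).prod with hl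
    set g := ((lam s v)⁻¹ * (lam r t)⁻¹ * lam s v * lam r t) * l⁻¹ with hg
    have hgK : g ∈ (Λ.gen (D.nroots / 2)).comap (MulAut.conj N).toMonoidHom := by
      refine mul_mem (mul_mem (mul_mem (mul_mem (inv_mem (hmem s hs h2 v)) (inv_mem (hmem r hr h1 t)))
        (hmem s hs h2 v)) (hmem r hr h1 t)) (inv_mem (Subgroup.list_prod_mem _ fun y hy => ?_))
      obtain ⟨q, hq, rfl⟩ := List.mem_map.1 hy
      exact hmem q.1 (hword q hq).1 (hword q hq).2 q.2
    have hg1 : τ g = 1 := by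
      rw [hg, map_mul, map_inv, mul_inv_eq_one, map_mul, map_mul, map_mul, map_inv, map_inv,
        himg s hs, himg r hr, hl, map_list_prod, List.map_map]
      refine Subtype.ext ?_
      push_cast
      rw [List.map_map, S.coe_xg, S.coe_xg, mul_assoc ((S.xU s v)⁻¹ * (S.xU r t)⁻¹),
        S.comm_wU hr hs hsr hsn,
        show ((S.xU s v)⁻¹ * (S.xU r t)⁻¹) * (S.xU r t * S.xU s v * S.wU (D.commWord F r s t v)) =
          S.wU (D.commWord F r s t v) by group, Sys.wU]
      exact congrArg List.prod (List.map_congr_left fun q hq => by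
        simp [himg q.1 (hword q hq).1, Sys.coe_xg])
    have h' : N * g * N⁻¹ = 1 := Λ.eq_one_of_ker _ le_rfl hQ _ hgK
      (by rw [map_mul, map_mul, map_inv, hg1, mul_one, mul_inv_cancel])
    exact mul_inv_eq_one.1 (conj_eq_one_iff.1 h')
  have hstX : ∀ r < D.nroots, ∀ t, FreeGroup.lift (fun q : Fin D.nroots × F => lam q.1 q.2)
      (D.stX r t) = lam r t := fun r hr t => by simp [ChevalleyDatum.stX, hr]
  have hrel : ∀ g ∈ D.steinbergRelsAB F,
      FreeGroup.lift (fun q : Fin D.nroots × F => lam q.1 q.2) g = 1 := by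
    rintro g (⟨r, t, v, hr, rfl⟩ | ⟨r, s, t, v, hr, hs, h1, h2, rfl⟩)
    · rw [map_mul, map_mul, map_inv, hstX r hr, hstX r hr, hstX r hr, mul_inv_eq_one]
      exact (hadd r hr t v).symm
    · rw [map_mul, map_mul, map_mul, map_mul, map_inv, map_inv, map_inv, hstX r hr, hstX s hs,
        ChevalleyDatum.stWord, map_list_prod, List.map_map, mul_inv_eq_one, hcomm r s t v hr hs h1 h2]
      refine congrArg List.prod (List.map_congr_left fun q hq => ?_)
      simp only [ChevalleyDatum.commWord, List.mem_map] at hq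
      obtain ⟨c', hc', rfl⟩ := hq
      exact (hstX _ (S.commTerms_spec hr hs hc').1 _).symm
  refine ⟨PresentedGroup.toGroup hrel, PresentedGroup.ext fun q => ?_⟩
  rw [MonoidHom.comp_apply, PresentedGroup.toGroup.of, himg _ q.1.2]
  refine Subtype.ext (Units.ext ?_)
  rw [show (PresentedGroup.of q : D.SteinbergCover F) = (S.coverLift F).x q.1 q.2 from by
    simp [Sys.coverLift, Sys.liftOfRels, ChevalleyDatum.stX, PresentedGroup.of],
    (S.coverLift F).θ_x q.1.2]
  rfl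

end Sys

end CfsgLib.Chev
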